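import Cfsg.Agent.H35.NI.TCMain
import Cfsg.Agent.H35.CoxGlue

/-!
# Glue for presentations with formal inverse letters (helper35)
-/

set_option autoImplicit false

namespace Cfsg.Agent.H35.NI

open Cfsg.Spor

section Words

variable {γ : Type} {K : Type*} [Group K]

/-- the formal inverse of a word -/
def finv (gv : γ → γ) (w : List γ) : List γ := w.reverse.map gv

theorem uw_finv (f : γ → K) (gv : γ → γ) (hv : ∀ x, f (gv x) = (f x)⁻¹) (w : List γ) :
    uw f (finv gv w) = (uw f w)⁻¹ := by
  unfold finv
  induction w with
  | nil => simp [uw]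
  | cons x w ih =>
    rw [List.reverse_cons, List.map_append, uw_append, ih, List.map_singleton, uw_singleton,
      uw_cons, mul_inv_rev, hv]

/-- reversal of a word of involutions -/
theorem uw_reverse_of (f : γ → K) (w : List γ) (hw : ∀ x ∈ w, f x * f x = 1) :
    uw f w.reverse = (uw f w)⁻¹ := by
  induction w with
  | nil => simp [uw]
  | cons x w ih =>
    rw [List.reverse_cons, uw_append, ih (fun y hy => hw y (List.mem_cons_of_mem _ hy)),
      uw_singleton, uw_cons, mul_inv_rev, inv_of_sq (hw x List.mem_cons_self)]

theorem mem_altW (x y : γ) : ∀ (m : ℕ) (z : γ), z ∈ altW x y m → z = x ∨ z = y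
  | 0, z, h => by simp [altW] at h
  | m + 1, z, h => by
    have h' : z = x ∨ z ∈ altW y x m := by simpa [altW] using h
    rcases h' with h' | h'
    · exact Or.inl h'
    · exact (mem_altW y x m z h').symm

/-- a Coxeter relator from the equality of the two alternating words -/
theorem cox_of_alt (f : γ → K) (x y : γ) (m : ℕ) (hx : f x * f x = 1) (hy : f y * f y = 1)
    (h : uw f (altW x y m) = uw f (altW y x m)) : (f x * f y) ^ m = 1 := by
  rw [← uw_altW, uw_append, uw_reverse_of f _ (fun z hz => by
    rcases mem_altW y x m z hz with rfl | rfl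
    · exact hy
    · exact hx), h, mul_inv_cancel]

theorem alt_of_cox (f : γ → K) (x y : γ) (m : ℕ) (hx : f x * f x = 1) (hy : f y * f y = 1)
    (h : (f x * f y) ^ m = 1) : uw f (altW x y m) = uw f (altW y x m) := by
  rw [← uw_altW, uw_append, uw_reverse_of f _ (fun z hz => by
    rcases mem_altW y x m z hz with rfl | rfl
    · exact hy
    · exact hx), mul_inv_eq_one] at h
  exact h

/-- the two alternating words of a pair of letters -/
def altPair (x y : γ) (m : ℕ) : List γ × List γ := (altW x y m, altW y x m)

variable [DecidableEq γ]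

/-- check that the circuits `circ c`, `c = c0, c0 + 1, ...` are the rotations of relator words
(or of their formal inverses) named by the certificate list -/
def circChk (gv : γ → γ) (full : List (List γ)) (circ : ℕ → List γ) :
    ℕ → List (ℕ × ℕ × Bool) → Bool
  | _, [] => true
  | c, r :: rest =>
    decide (circ c = (cond r.2.2 (finv gv (full.getD r.1 [])) (full.getD r.1 [])).rotate r.2.1) &&
      circChk gv full circ (c + 1) rest

theorem circChk_sound (f : γ → K) (gv : γ → γ) (hv : ∀ x, f (gv x) = (f x)⁻¹)
    (full : List (List γ)) (hfull : ∀ w ∈ full, uw f w = 1) (circ : ℕ → List γ) :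
    ∀ (cert : List (ℕ × ℕ × Bool)) (c0 : ℕ), circChk gv full circ c0 cert = true →
      ∀ i, i < cert.length → uw f (circ (c0 + i)) = 1
  | [], _, _, i, hi => by simp at hi
  | r :: rest, c0, h, i, hi => by
    unfold circChk at h
    rw [Bool.and_eq_true, decide_eq_true_eq] at h
    cases i with
    | zero =>
      rw [Nat.add_zero, h.1]
      apply uw_rotate
      have hg : uw f (full.getD r.1 []) = 1 := by
        rw [List.getD_eq_getElem?_getD]
        cases hq : full[r.1]? with
        | none => simp [uw]
        | some w => exact hfull w (List.mem_of_getElem? hq)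
      cases r.2.2
      · exact hg
      · show uw f (finv gv (full.getD r.1 [])) = 1
        rw [uw_finv f gv hv, hg, inv_one]
    | succ i =>
      have := circChk_sound f gv hv full hfull circ rest (c0 + 1) h.2 i (by simpa using hi)
      rw [show c0 + (i + 1) = c0 + 1 + i by omega]
      exact this

theorem circTab_valid (f : γ → K) (gv : γ → γ) (hv : ∀ x, f (gv x) = (f x)⁻¹)
    (full : List (List γ)) (hfull : ∀ w ∈ full, uw f w = 1) (t : ℕ → List γ)
    (cert : List (ℕ × ℕ × Bool)) (h : circChk gv full t 0 cert = true) :
    ∀ c, uw f (circTab cert.length t c) = 1 := by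
  intro c
  unfold circTab
  by_cases hc : cert.length ≤ c
  · rw [ble_true_of hc]; simp [uw]
  · rw [ble_false_of hc]
    have := circChk_sound f gv hv full hfull t cert 0 h c (by omega)
    rw [Nat.zero_add] at this
    exact this

/-- check of the subgroup circuits: `hc2 c ++ hc1 c` is a subgroup word -/
def hcChk (sw : List (List γ)) (hc1 hc2 : ℕ → List γ) (c : ℕ) : Bool :=
  decide ((hc2 c ++ hc1 c) ∈ sw)

theorem hcTab_valid {G : Type*} [Group G] (f : γ → G)
    (H : Subgroup G) (sw : List (List γ)) (hsw : ∀ w ∈ sw, uw f w ∈ H) (t1 t2 : ℕ → List γ)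
    (KH : ℕ) (h : ∀ c, c < KH → hcChk sw t1 t2 c = true) :
    ∀ c, uw f (circTab KH t2 c ++ circTab KH t1 c) ∈ H := by
  intro c
  unfold circTab
  by_cases hc : KH ≤ c
  · rw [ble_true_of hc]; simp [uw]
  · rw [ble_false_of hc]
    have h1 := h c (by omega)
    unfold hcChk at h1
    rw [decide_eq_true_eq] at h1
    exact hsw _ h1

/-- the universal property of a Coxeter-style presentation, with the Coxeter relations required
only for the nodes of the graph -/
theorem cox_UP_nodes (edges : List (γ × ℕ × γ)) (extra : List (FreeGroup γ))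
    (f : γ → K)
    (h1 : ∀ x ∈ coxNodes edges, ∀ y ∈ coxNodes edges, (f x * f y) ^ coxLabel edges x y = 1)
    (h2 : ∀ r ∈ extra, FreeGroup.lift f r = 1) :
    ∃ φ : CoxPresented γ edges extra →* K, ∀ x, φ (PresentedGroup.of x) = f x := by
  have hr : ∀ r ∈ coxRelators edges ∪ {r | r ∈ extra}, FreeGroup.lift f r = 1 := by
    intro r hr
    rcases hr with ⟨x, hx, y, hy, rfl⟩ | hr
    · rw [map_pow, map_mul, FreeGroup.lift_apply_of, FreeGroup.lift_apply_of]
      exact h1 x hx y hy
    · exact h2 r hr
  exact ⟨PresentedGroup.toGroup hr, fun x => PresentedGroup.toGroup.of hr⟩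

/-- the relations of a Coxeter-style presentation hold in the presented group -/
theorem cox_rel_nodes (edges : List (γ × ℕ × γ)) (extra : List (FreeGroup γ)) :
    (∀ x ∈ coxNodes edges, ∀ y ∈ coxNodes edges,
      ((PresentedGroup.of x : CoxPresented γ edges extra) * PresentedGroup.of y) ^
        coxLabel edges x y = 1) ∧
    (∀ r ∈ extra, FreeGroup.lift
      (fun x => (PresentedGroup.of x : CoxPresented γ edges extra)) r = 1) := by
  constructor
  · intro x hx y hy
    have h : (FreeGroup.of x * FreeGroup.of y) ^ coxLabel edges x y ∈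
        coxRelators edges ∪ {r | r ∈ extra} := Or.inl ⟨x, hx, y, hy, rfl⟩
    have := PresentedGroup.one_of_mem h
    rw [map_pow, map_mul] at this
    exact this
  · intro r hr
    rw [lift_of_eq_mk]
    exact PresentedGroup.one_of_mem (Or.inr hr)

end Words

end Cfsg.Agent.H35.NI
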