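import Cfsg.Agent.H35.NI.Glue
import Cfsg.Prelude.Def_Spor_ON

/-!
# The presentation of the O'Nan group as word lists (helper35)

The alphabet `OnL` has the seven generators and a letter `v` for the inverse of `g`.
-/

set_option autoImplicit false
set_option linter.unusedSimpArgs false
set_option maxRecDepth 100000

namespace Cfsg.Agent.H35

open Cfsg.Spor

/-- letters: the generators of the presentation and `v`, the inverse of `g` -/
inductive OnL
  | g
  | a
  | b
  | c
  | d
  | e
  | f
  | v
  deriving DecidableEq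

noncomputable def on_gi : OnL → ℕ := fun x => OnL.rec (motive := fun _ => ℕ) 0 1 2 3 4 5 6 7 x
def on_gens : List OnL := [.g, .a, .b, .c, .d, .e, .f, .v]
/-- letter of a field index -/
def on_gof : ℕ → OnL := fun i => on_gens.getD i .a
/-- the letter of the inverse -/
noncomputable def on_gv : OnL → OnL :=
  fun x => OnL.rec (motive := fun _ => OnL) .v .a .b .c .d .e .f .g x

/-- the letter of a generator -/
def on_emb : ON.Gen → OnL
  | .g => .g
  | .a => .a
  | .b => .b
  | .c => .c
  | .d => .d
  | .e => .e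
  | .f => .f

/-- the elements of the presented group named by the letters -/
def on_gen : OnL → ON
  | .g => PresentedGroup.of ON.Gen.g
  | .a => PresentedGroup.of ON.Gen.a
  | .b => PresentedGroup.of ON.Gen.b
  | .c => PresentedGroup.of ON.Gen.c
  | .d => PresentedGroup.of ON.Gen.d
  | .e => PresentedGroup.of ON.Gen.e
  | .f => PresentedGroup.of ON.Gen.f
  | .v => (PresentedGroup.of ON.Gen.g)⁻¹

/-- the relators as pairs of words with equal values -/
def on_rws : List (List OnL × List OnL) := [
  ([.a, .b, .a], [.b, .a, .b]),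
  ([.a, .c], [.c, .a]),
  ([.a, .d], [.d, .a]),
  ([.a, .e], [.e, .a]),
  ([.a, .f], [.f, .a]),
  ([.b, .c, .b], [.c, .b, .c]),
  ([.b, .d], [.d, .b]),
  ([.b, .e], [.e, .b]),
  ([.b, .f], [.f, .b]),
  ([.c, .d, .c, .d, .c, .d, .c, .d], [.d, .c, .d, .c, .d, .c, .d, .c]),
  ([.c, .e], [.e, .c]),
  ([.c, .f], [.f, .c]),
  ([.d, .e, .d], [.e, .d, .e]),
  ([.d, .f], [.f, .d]),
  ([.e, .f, .e], [.f, .e, .f]),
  ([.a, .f], [.g, .g]),
  ([.a, .f], [.c, .d, .c, .d, .c, .d, .c, .d]),
  ([.c, .v, .d, .v, .d, .c, .d, .g, .d, .g], []),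
  ([.d, .v, .c, .v, .c, .d, .c, .g, .c, .g], []),
  ([.b, .c, .d, .g, .b, .c, .d, .g, .b, .c, .d, .g, .b, .c, .d, .g, .b, .c, .d, .g], []),
  ([.g, .b, .c, .g, .c, .b, .g, .b, .c, .g, .c], []),
  ([.g, .e, .d, .g, .d, .e, .g, .e, .d, .g, .d], [])]

/-- the full relator words -/
noncomputable def on_full : List (List OnL) :=
  on_rws.map (fun r => r.1 ++ NI.finv on_gv r.2) ++
    [[.g, .v], [.a, .a], [.b, .b], [.c, .c], [.d, .d], [.e, .e], [.f, .f]]

theorem on_gof_gi (x : OnL) : on_gof (on_gi x) = x := by cases x <;> rfl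

theorem on_gens_all (x : OnL) : x ∈ on_gens := by cases x <;> decide

theorem on_gv_gv (x : OnL) : on_gv (on_gv x) = x := by cases x <;> rfl

theorem on_gen_emb (x : ON.Gen) : on_gen (on_emb x) = PresentedGroup.of x := by cases x <;> rfl

theorem on_node_sq (x : ON.Gen) (hx : x ∈ coxNodes ON.edges) :
    (PresentedGroup.of x : ON) * PresentedGroup.of x = 1 := by
  have := (NI.cox_rel_nodes ON.edges ON.extra).1 x hx x hx
  have h1 : coxLabel ON.edges x x = 1 := if_pos rfl
  rw [h1, pow_one] at this
  exact this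

theorem on_gen_gv (x : OnL) : on_gen (on_gv x) = (on_gen x)⁻¹ := by
  cases x
  · rfl
  · exact (inv_of_sq (on_node_sq .a (by decide))).symm
  · exact (inv_of_sq (on_node_sq .b (by decide))).symm
  · exact (inv_of_sq (on_node_sq .c (by decide))).symm
  · exact (inv_of_sq (on_node_sq .d (by decide))).symm
  · exact (inv_of_sq (on_node_sq .e (by decide))).symm
  · exact (inv_of_sq (on_node_sq .f (by decide))).symm
  · exact (inv_inv _).symm

theorem on_key (x y : ON.Gen) (hx : x ∈ coxNodes ON.edges) (hy : y ∈ coxNodes ON.edges)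
    (hne : x ≠ y) :
    (NI.altPair (on_emb x) (on_emb y) (coxLabel ON.edges x y)) ∈ on_rws ∨
      (NI.altPair (on_emb y) (on_emb x) (coxLabel ON.edges x y)) ∈ on_rws := by
  cases x <;> cases y <;>
    first
    | exact absurd rfl hne
    | exact absurd hx (by decide)
    | exact absurd hy (by decide)
    | decide

theorem on_UP {K : Type*} [Group K] (f : OnL → K) (hv : ∀ x, f (on_gv x) = (f x)⁻¹)
    (h1 : ∀ r ∈ on_rws, uw f r.1 = uw f r.2) :
    ∃ φ : ON →* K, ∀ x, φ (on_gen x) = f x := by
  have hvg : f .v = (f .g)⁻¹ := hv .g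
  have ha : (f .a)⁻¹ = f .a := (hv .a).symm
  have hb : (f .b)⁻¹ = f .b := (hv .b).symm
  have hc : (f .c)⁻¹ = f .c := (hv .c).symm
  have hd : (f .d)⁻¹ = f .d := (hv .d).symm
  have he : (f .e)⁻¹ = f .e := (hv .e).symm
  have hf : (f .f)⁻¹ = f .f := (hv .f).symm
  have hsq : ∀ z ∈ coxNodes ON.edges, f (on_emb z) * f (on_emb z) = 1 := by
    intro z hz
    cases z
    · exact absurd hz (by decide)
    · exact mul_eq_one_iff_eq_inv.mpr ha.symm
    · exact mul_eq_one_iff_eq_inv.mpr hb.symm
    · exact mul_eq_one_iff_eq_inv.mpr hc.symm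
    · exact mul_eq_one_iff_eq_inv.mpr hd.symm
    · exact mul_eq_one_iff_eq_inv.mpr he.symm
    · exact mul_eq_one_iff_eq_inv.mpr hf.symm
  obtain ⟨φ, hφ⟩ := NI.cox_UP_nodes ON.edges ON.extra (fun x => f (on_emb x)) (by
    intro x hx y hy
    by_cases hxy : x = y
    · subst hxy
      have h1' : coxLabel ON.edges x x = 1 := if_pos rfl
      rw [h1', pow_one]
      exact hsq x hx
    · rcases on_key x y hx hy hxy with h | h
      · exact NI.cox_of_alt f _ _ _ (hsq x hx) (hsq y hy) (h1 _ h)
      · exact NI.cox_of_alt f _ _ _ (hsq x hx) (hsq y hy) (h1 _ h).symm) (by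
    intro r hr
    delta ON.extra at hr
    simp only [List.mem_cons, List.not_mem_nil, or_false] at hr
    have x0 := h1 ([.a, .f], [.g, .g]) (by decide)
    have x1 := h1 ([.a, .f], [.c, .d, .c, .d, .c, .d, .c, .d]) (by decide)
    have x2 := h1 ([.c, .v, .d, .v, .d, .c, .d, .g, .d, .g], []) (by decide)
    have x3 := h1 ([.d, .v, .c, .v, .c, .d, .c, .g, .c, .g], []) (by decide)
    have x4 := h1 ([.b, .c, .d, .g, .b, .c, .d, .g, .b, .c, .d, .g, .b, .c, .d, .g, .b, .c, .d, .g], []) (by decide)
    have x5 := h1 ([.g, .b, .c, .g, .c, .b, .g, .b, .c, .g, .c], []) (by decide)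
    have x6 := h1 ([.g, .e, .d, .g, .d, .e, .g, .e, .d, .g, .d], []) (by decide)
    simp only [uw_eq, List.map, List.prod_cons, List.prod_nil, mul_one, hvg, mul_assoc] at x0 x1 x2 x3 x4 x5 x6
    rcases hr with rfl | rfl | rfl | rfl | rfl | rfl | rfl
    · simp only [map_mul, map_inv, map_pow, FreeGroup.lift_apply_of, on_emb]
      rw [mul_inv_eq_one]
      simpa only [pow_succ, pow_zero, one_mul, mul_assoc] using x0
    · simp only [map_mul, map_inv, map_pow, FreeGroup.lift_apply_of, on_emb]
      rw [mul_inv_eq_one]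
      simpa only [pow_succ, pow_zero, one_mul, mul_assoc] using x1
    · simpa only [map_mul, map_inv, map_pow, FreeGroup.lift_apply_of, on_emb, mul_inv_rev, hd, mul_assoc] using x2
    · simpa only [map_mul, map_inv, map_pow, FreeGroup.lift_apply_of, on_emb, mul_inv_rev, hc, mul_assoc] using x3
    · simpa only [map_mul, map_inv, map_pow, FreeGroup.lift_apply_of, on_emb, pow_succ, pow_zero, one_mul, mul_assoc] using x4
    · simpa only [map_mul, map_inv, map_pow, FreeGroup.lift_apply_of, on_emb, hb, hc, mul_assoc] using x5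
    · simpa only [map_mul, map_inv, map_pow, FreeGroup.lift_apply_of, on_emb, hd, he, mul_assoc] using x6)
  refine ⟨φ, fun x => ?_⟩
  cases x
  · exact hφ .g
  · exact hφ .a
  · exact hφ .b
  · exact hφ .c
  · exact hφ .d
  · exact hφ .e
  · exact hφ .f
  · show φ (PresentedGroup.of ON.Gen.g)⁻¹ = f .v
    rw [map_inv, hφ .g, hvg]
    rfl

/-- extension of an assignment of the generators to the letters -/
def on_ext {K : Type*} [Group K] (f : ON.Gen → K) : OnL → K
  | .g => f .g
  | .a => f .a
  | .b => f .b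
  | .c => f .c
  | .d => f .d
  | .e => f .e
  | .f => f .f
  | .v => (f .g)⁻¹

theorem on_ext_emb {K : Type*} [Group K] (f : ON.Gen → K) (x : ON.Gen) :
    on_ext f (on_emb x) = f x := by cases x <;> rfl

theorem on_gen_ext : on_gen = on_ext (fun x => (PresentedGroup.of x : ON)) := by
  funext x
  cases x <;> rfl

/-- the word relations from the relations of the presentation, in any group -/
theorem on_rel_of {K : Type*} [Group K] (f : ON.Gen → K)
    (hA : ∀ x ∈ coxNodes ON.edges, ∀ y ∈ coxNodes ON.edges,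
      (f x * f y) ^ coxLabel ON.edges x y = 1)
    (hB : ∀ r ∈ ON.extra, FreeGroup.lift f r = 1) :
    ∀ r ∈ on_rws, uw (on_ext f) r.1 = uw (on_ext f) r.2 := by
  have hsq : ∀ x ∈ coxNodes ON.edges, f x * f x = 1 := by
    intro x hx
    have := hA x hx x hx
    have h1 : coxLabel ON.edges x x = 1 := if_pos rfl
    rw [h1, pow_one] at this
    exact this
  have alt : ∀ x ∈ coxNodes ON.edges, ∀ y ∈ coxNodes ON.edges,
      uw (on_ext f) (altW (on_emb x) (on_emb y) (coxLabel ON.edges x y)) =
        uw (on_ext f) (altW (on_emb y) (on_emb x) (coxLabel ON.edges x y)) := by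
    intro x hx y hy
    apply NI.alt_of_cox
    · rw [on_ext_emb]; exact hsq x hx
    · rw [on_ext_emb]; exact hsq y hy
    · rw [on_ext_emb, on_ext_emb]
      exact hA x hx y hy
  have ib : (f .b)⁻¹ = f .b := inv_of_sq (hsq .b (by decide))
  have ic : (f .c)⁻¹ = f .c := inv_of_sq (hsq .c (by decide))
  have id : (f .d)⁻¹ = f .d := inv_of_sq (hsq .d (by decide))
  have ie : (f .e)⁻¹ = f .e := inv_of_sq (hsq .e (by decide))
  delta ON.extra at hB
  simp only [List.forall_mem_cons, List.not_mem_nil, false_imp_iff, implies_true, and_true,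
    map_mul, map_inv, map_pow, FreeGroup.lift_apply_of] at hB
  obtain ⟨e0, e1, e2, e3, e4, e5, e6⟩ := hB
  intro r hr
  simp only [on_rws, List.mem_cons, List.not_mem_nil, or_false] at hr
  rcases hr with rfl | rfl | rfl | rfl | rfl | rfl | rfl | rfl | rfl | rfl | rfl | rfl | rfl |
    rfl | rfl | rfl | rfl | rfl | rfl | rfl | rfl | rfl
  · exact alt .a (by decide) .b (by decide)
  · exact alt .a (by decide) .c (by decide)
  · exact alt .a (by decide) .d (by decide)
  · exact alt .a (by decide) .e (by decide)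
  · exact alt .a (by decide) .f (by decide)
  · exact alt .b (by decide) .c (by decide)
  · exact alt .b (by decide) .d (by decide)
  · exact alt .b (by decide) .e (by decide)
  · exact alt .b (by decide) .f (by decide)
  · exact alt .c (by decide) .d (by decide)
  · exact alt .c (by decide) .e (by decide)
  · exact alt .c (by decide) .f (by decide)
  · exact alt .d (by decide) .e (by decide)
  · exact alt .d (by decide) .f (by decide)
  · exact alt .e (by decide) .f (by decide)
  · rw [mul_inv_eq_one] at e0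
    simpa only [uw_eq, List.map, List.prod_cons, List.prod_nil, mul_one, on_ext, pow_succ,
      pow_zero, one_mul, mul_assoc] using e0
  · rw [mul_inv_eq_one] at e1
    simpa only [uw_eq, List.map, List.prod_cons, List.prod_nil, mul_one, on_ext, pow_succ,
      pow_zero, one_mul, mul_assoc] using e1
  · simpa only [uw_eq, List.map, List.prod_cons, List.prod_nil, mul_one, on_ext, mul_inv_rev,
      id, mul_assoc] using e2
  · simpa only [uw_eq, List.map, List.prod_cons, List.prod_nil, mul_one, on_ext, mul_inv_rev,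
      ic, mul_assoc] using e3
  · simpa only [uw_eq, List.map, List.prod_cons, List.prod_nil, mul_one, on_ext, pow_succ,
      pow_zero, one_mul, mul_assoc] using e4
  · simpa only [uw_eq, List.map, List.prod_cons, List.prod_nil, mul_one, on_ext, ib, ic,
      mul_assoc] using e5
  · simpa only [uw_eq, List.map, List.prod_cons, List.prod_nil, mul_one, on_ext, id, ie,
      mul_assoc] using e6

theorem on_rel : ∀ r ∈ on_rws, uw on_gen r.1 = uw on_gen r.2 := by
  rw [on_gen_ext]
  exact on_rel_of _ (NI.cox_rel_nodes ON.edges ON.extra).1 (NI.cox_rel_nodes ON.edges ON.extra).2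

theorem on_full_one : ∀ w ∈ on_full, uw on_gen w = 1 := by
  intro w hw
  unfold on_full at hw
  rw [List.mem_append, List.mem_map] at hw
  rcases hw with ⟨r, hr, rfl⟩ | hw
  · rw [uw_append, NI.uw_finv on_gen on_gv on_gen_gv, on_rel r hr, mul_inv_cancel]
  · simp only [List.mem_cons, List.not_mem_nil, or_false] at hw
    rcases hw with rfl | rfl | rfl | rfl | rfl | rfl | rfl
    · show uw on_gen [.g, on_gv .g] = 1
      rw [uw_cons, uw_singleton, on_gen_gv, mul_inv_cancel]
    · rw [uw_cons, uw_singleton]; exact on_node_sq .a (by decide)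
    · rw [uw_cons, uw_singleton]; exact on_node_sq .b (by decide)
    · rw [uw_cons, uw_singleton]; exact on_node_sq .c (by decide)
    · rw [uw_cons, uw_singleton]; exact on_node_sq .d (by decide)
    · rw [uw_cons, uw_singleton]; exact on_node_sq .e (by decide)
    · rw [uw_cons, uw_singleton]; exact on_node_sq .f (by decide)

theorem on_closure : Subgroup.closure (Set.range on_gen) = ⊤ := by
  rw [eq_top_iff, ← PresentedGroup.closure_range_of]
  apply Subgroup.closure_mono
  rintro _ ⟨x, rfl⟩
  exact ⟨on_emb x, on_gen_emb x⟩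

end Cfsg.Agent.H35
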