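import Cfsg.Agent.H35.NI.TCReplay
import Cfsg.Agent.H35.TCMain

/-!
# Index from a pair of certificates with formal inverse letters (helper35)
-/

set_option autoImplicit false

namespace Cfsg.Agent.H35.NI

section Main

variable {γ : Type} {G : Type} [Group G] (gen : γ → G) (H : Subgroup G)
  (D : W.PData γ) (R : RData γ) (rels : List (List γ × List γ)) (sw : List (List γ))

/-- everything needed to conclude: a checked permutation certificate and a checked replay
certificate for the same subgroup -/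
structure TCHyp : Prop where
  UP : ∀ f : γ → Equiv.Perm (Fin D.N), (∀ x, f (R.gv x) = (f x)⁻¹) →
      (∀ r ∈ rels, uw f r.1 = uw f r.2) →
      ∃ φ : G →* Equiv.Perm (Fin D.N), ∀ x, φ (gen x) = f x
  hP : PermOK D R.gv rels sw
  hy : RHyp R H gen
  hgensR : ∀ x : γ, x ∈ R.gens
  hgen : Subgroup.closure (Set.range gen) = ⊤
  hN : 0 < R.N
  hNM : R.N ≤ R.M
  hNN : R.N = D.N
  hchk : ∀ p, p < R.M → R.chk p = true
  hH : H = Subgroup.closure {g | ∃ w ∈ sw, g = uw gen w}

variable {gen H D R rels sw}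

theorem tc_core (h : TCHyp gen H D R rels sw) (hN : 0 < D.N) :
    ∃ ρ : G →* Equiv.Perm (Fin D.N),
      (∀ (w : List γ) (p : Fin D.N), D.walk w p.val = ((ρ (uw gen w))⁻¹ p).val) ∧
      H = stabOf ρ ⟨0, hN⟩ ∧ (∀ ω : Fin D.N, ∃ g : G, ρ g ⟨0, hN⟩ = ω) := by
  obtain ⟨ρ, hw, htr, hfix⟩ := perm_rep gen h.UP h.hP
  refine ⟨ρ, hw, ?_, htr⟩
  have hH := h.hH
  have hle : H ≤ stabOf ρ ⟨0, hN⟩ := by
    rw [hH, Subgroup.closure_le]
    rintro g ⟨w, hwm, rfl⟩
    exact hfix w hwm
  have hb := replay_bound h.hy h.hgensR h.hgen h.hN h.hNM h.hchk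
  exact eq_stabOf H ρ _ (fun g hg => hle hg) htr hb.1
    (by rw [Fintype.card_fin, ← h.hNN]; exact hb.2)

/-- The index of the subgroup is the number of points. -/
theorem tc_index (h : TCHyp gen H D R rels sw) : H.index = D.N := by
  obtain ⟨ρ, _, hst, htr⟩ := tc_core h h.hP.hN
  rw [hst, index_stabOf ρ _ htr, Fintype.card_fin]

end Main

end Cfsg.Agent.H35.NI
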