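import Cfsg.Agent.H35.W.TCPerm

/-!
# Permutation-representation certificates with formal inverse letters (helper35)

Variant of `Cfsg.Agent.H35.W.perm_rep` for generators that need not be involutions: the
alphabet carries a map `gv` sending a letter to the letter of its inverse, the table has one
column per letter, and relators are pairs of positive words with equal values.
-/

set_option autoImplicit false

namespace Cfsg.Agent.H35.NI

noncomputable section

variable {γ : Type}

/-- at `p`, every letter stays inside `[0, N)` and is undone by its inverse letter -/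
def invOK (D : W.PData γ) (gv : γ → γ) (p : ℕ) : Bool :=
  D.gens.all (fun x => Nat.ble (Nat.succ (D.act p x)) D.N &&
    Nat.beq (D.act (D.act p x) (gv x)) p)

/-- all point checks -/
def ptOK (D : W.PData γ) (gv : γ → γ) (rels : List (List γ × List γ)) (p : ℕ) : Bool :=
  invOK D gv p && (D.relOK rels p && D.trOK p)

/-- The checked facts of a permutation certificate. -/
structure PermOK (D : W.PData γ) (gv : γ → γ) (rels : List (List γ × List γ))
    (sw : List (List γ)) : Prop where
  hN : 0 < D.N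
  hgens : ∀ x : γ, x ∈ D.gens
  hgv : ∀ x, gv (gv x) = x
  hpt : ∀ p, p < D.N → ptOK D gv rels p = true
  hsub : D.subOK sw = true

variable {D : W.PData γ} {gv : γ → γ} {rels : List (List γ × List γ)} {sw : List (List γ)}

theorem PermOK.inv (h : PermOK D gv rels sw) (x : γ) (p : ℕ) (hp : p < D.N) :
    D.act p x < D.N ∧ D.act (D.act p x) (gv x) = p := by
  have h1 := h.hpt p hp
  unfold ptOK at h1
  rw [Bool.and_eq_true] at h1
  have h2 := h1.1
  unfold invOK at h2
  rw [List.all_eq_true] at h2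
  have h3 := h2 x (h.hgens x)
  rw [Bool.and_eq_true, Nat.ble_eq, Nat.beq_eq] at h3
  exact ⟨h3.1, h3.2⟩

theorem PermOK.inv' (h : PermOK D gv rels sw) (x : γ) (p : ℕ) (hp : p < D.N) :
    D.act p (gv x) < D.N ∧ D.act (D.act p (gv x)) x = p := by
  have := h.inv (gv x) p hp
  rw [h.hgv] at this
  exact this

theorem PermOK.rel (h : PermOK D gv rels sw) (r : List γ × List γ) (hr : r ∈ rels) (p : ℕ)
    (hp : p < D.N) : D.walk r.1 p = D.walk r.2 p := by
  have h1 := h.hpt p hp
  unfold ptOK at h1
  rw [Bool.and_eq_true, Bool.and_eq_true] at h1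
  have h2 := h1.2.1
  unfold W.PData.relOK at h2
  rw [List.all_eq_true] at h2
  have h3 := h2 r hr
  rw [Nat.beq_eq] at h3
  exact h3

theorem PermOK.tr (h : PermOK D gv rels sw) (p : ℕ) (hp : p < D.N) :
    p = 0 ∨ ∃ x : γ, D.act p x < p := by
  have h1 := h.hpt p hp
  unfold ptOK at h1
  rw [Bool.and_eq_true, Bool.and_eq_true] at h1
  have h2 := h1.2.2
  unfold W.PData.trOK at h2
  rw [Bool.or_eq_true] at h2
  rcases h2 with h2 | h2
  · left; rw [Nat.beq_eq] at h2; exact h2
  · right
    rw [List.any_eq_true] at h2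
    obtain ⟨x, _, hx⟩ := h2
    rw [Nat.ble_eq] at hx
    exact ⟨x, hx⟩

/-- The permutation of `Fin N` given by the column of a letter. -/
def fperm (h : PermOK D gv rels sw) (x : γ) : Equiv.Perm (Fin D.N) where
  toFun p := ⟨D.act p.val x, (h.inv x p.val p.isLt).1⟩
  invFun p := ⟨D.act p.val (gv x), (h.inv' x p.val p.isLt).1⟩
  left_inv p := Fin.ext (h.inv x p.val p.isLt).2
  right_inv p := Fin.ext (h.inv' x p.val p.isLt).2

theorem fperm_apply (h : PermOK D gv rels sw) (x : γ) (p : Fin D.N) :
    ((fperm h x) p).val = D.act p.val x := rfl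

theorem fperm_gv (h : PermOK D gv rels sw) (x : γ) : fperm h (gv x) = (fperm h x)⁻¹ := by
  ext p
  rfl

/-- the permutation assigned to a letter: the inverse of its column -/
def frep (h : PermOK D gv rels sw) (x : γ) : Equiv.Perm (Fin D.N) := (fperm h x)⁻¹

theorem frep_gv (h : PermOK D gv rels sw) (x : γ) : frep h (gv x) = (frep h x)⁻¹ := by
  unfold frep
  rw [fperm_gv]

theorem walk_frep (h : PermOK D gv rels sw) (w : List γ) (p : Fin D.N) :
    D.walk w p.val = (((uw (frep h) w)⁻¹) p).val := by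
  induction w generalizing p with
  | nil => rw [uw_nil, inv_one]; rfl
  | cons x w ih =>
    rw [W.PData.walk_cons, ← fperm_apply h x p, ih, uw_cons, mul_inv_rev, Equiv.Perm.mul_apply]
    unfold frep
    rw [inv_inv]

theorem frep_rel (h : PermOK D gv rels sw) (r : List γ × List γ) (hr : r ∈ rels) :
    uw (frep h) r.1 = uw (frep h) r.2 := by
  have key : (uw (frep h) r.1)⁻¹ = (uw (frep h) r.2)⁻¹ := by
    ext p
    rw [← walk_frep, ← walk_frep]
    exact h.rel r hr p.val p.isLt
  exact inv_injective key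

/-- The permutation representation attached to a checked certificate. -/
theorem perm_rep {G : Type} [Group G] (gen : γ → G)
    (UP : ∀ f : γ → Equiv.Perm (Fin D.N), (∀ x, f (gv x) = (f x)⁻¹) →
      (∀ r ∈ rels, uw f r.1 = uw f r.2) →
      ∃ φ : G →* Equiv.Perm (Fin D.N), ∀ x, φ (gen x) = f x)
    (h : PermOK D gv rels sw) :
    ∃ ρ : G →* Equiv.Perm (Fin D.N),
      (∀ (w : List γ) (p : Fin D.N), D.walk w p.val = ((ρ (uw gen w))⁻¹ p).val) ∧
      (∀ ω : Fin D.N, ∃ g : G, ρ g ⟨0, h.hN⟩ = ω) ∧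
      (∀ w ∈ sw, ρ (uw gen w) ⟨0, h.hN⟩ = ⟨0, h.hN⟩) := by
  obtain ⟨ρ, hρ⟩ := UP (frep h) (frep_gv h) (frep_rel h)
  have hfun : (fun x => ρ (gen x)) = frep h := funext hρ
  have hw : ∀ (w : List γ) (p : Fin D.N), D.walk w p.val = ((ρ (uw gen w))⁻¹ p).val := by
    intro w p
    rw [uw_map, hfun]
    exact walk_frep h w p
  refine ⟨ρ, hw, ?_, ?_⟩
  · intro ω
    obtain ⟨n, hn⟩ := ω
    induction n using Nat.strong_induction_on with
    | _ n ih =>
      rcases h.tr n hn with h0 | ⟨x, hx⟩
      · subst h0; exact ⟨1, by simp⟩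
      · obtain ⟨g, hg⟩ := ih (D.act n x) hx (h.inv x n hn).1
        refine ⟨gen x * g, ?_⟩
        rw [map_mul, Equiv.Perm.mul_apply, hg, hρ]
        unfold frep
        rw [Equiv.Perm.inv_eq_iff_eq]
        apply Fin.ext
        rw [fperm_apply]
  · intro w hwm
    have h1 := h.hsub
    unfold W.PData.subOK at h1
    rw [List.all_eq_true] at h1
    have h2 := h1 w hwm
    rw [Nat.beq_eq] at h2
    have h3 := hw w ⟨0, h.hN⟩
    rw [h2] at h3
    have h4 : (ρ (uw gen w))⁻¹ ⟨0, h.hN⟩ = ⟨0, h.hN⟩ := Fin.ext h3.symm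
    rw [Equiv.Perm.inv_eq_iff_eq] at h4
    exact h4.symm

end

end Cfsg.Agent.H35.NI
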