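import Cfsg.Agent.H35.NI.TCPerm

/-!
# Replay certificates with formal inverse letters (helper35)

Same as `Cfsg.Agent.H35.W.RData` and `W.replay_bound`, for generators that need not be
involutions: the alphabet carries a map `gv` sending a letter to the letter of its inverse, and
a step along the letter `x` multiplies a coset by the inverse of the generator of `x`.
-/

set_option autoImplicit false

namespace Cfsg.Agent.H35.NI

/-- Data of a replay certificate. -/
structure RData (γ : Type) where
  /-- packed row of a name -/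
  row : ℕ → ℕ
  /-- number of names -/
  M : ℕ
  /-- the names `< N` are the live ones -/
  N : ℕ
  /-- field index of a generator -/
  gi : γ → ℕ
  /-- generator of a field index -/
  gof : ℕ → γ
  /-- all generators -/
  gens : List γ
  /-- relator circuits -/
  circ : ℕ → List γ
  /-- subgroup circuits, the part ending at the base name -/
  hc1 : ℕ → List γ
  /-- subgroup circuits, the part starting at the base name -/
  hc2 : ℕ → List γ
  /-- fuel for following alias chains -/
  fuel : ℕ
  /-- the letter of the inverse -/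
  gv : γ → γ

noncomputable section

namespace RData

/-- target of an entry -/
def tgt (e : ℕ) : ℕ := Nat.land e (nat_lit 16777215)
/-- age of an entry (`0`: empty; larger: older) -/
def age (e : ℕ) : ℕ := Nat.land (Nat.shiftRight e (nat_lit 24)) (nat_lit 4294967295)
/-- kind of justification of an entry -/
def kind (e : ℕ) : ℕ := Nat.land (Nat.shiftRight e (nat_lit 56)) (nat_lit 7)
/-- argument of the justification -/
def arg (e : ℕ) : ℕ := Nat.shiftRight e (nat_lit 64)
/-- aux field: start name of the alias justification -/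
def astart (a : ℕ) : ℕ := Nat.land a (nat_lit 16777215)
/-- aux field: defining parent -/
def apar (a : ℕ) : ℕ := Nat.land (Nat.shiftRight a (nat_lit 24)) (nat_lit 16777215)
/-- aux field: index of the defining generator -/
def adgi (a : ℕ) : ℕ := Nat.land (Nat.shiftRight a (nat_lit 48)) (nat_lit 255)
/-- aux field: creation order -/
def aord (a : ℕ) : ℕ := Nat.shiftRight a (nat_lit 56)

/-- the failure value of walks -/
def bad : ℕ := nat_lit 16777216

theorem tgt_lt (e : ℕ) : tgt e < bad := by
  have h : (nat_lit 16777215) < 2 ^ 24 := by decide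
  exact Nat.and_lt_two_pow e h

theorem astart_lt (e : ℕ) : astart e < bad := tgt_lt e

theorem age_zero : age 0 = 0 := by decide

variable {γ : Type} (D : RData γ)

/-- `i`-th field of the row of `p` -/
def ent (p i : ℕ) : ℕ := fld 96 (D.row p) i

/-- edge entry of `p` for generator `x` -/
def slot (p : ℕ) (x : γ) : ℕ := fld 96 (D.row p) (Nat.add 2 (D.gi x))

/-- resolve a name along alias entries older than `t` -/
def res : ℕ → ℕ → ℕ → ℕ := fun f =>
  Nat.rec (motive := fun _ => ℕ → ℕ → ℕ) (fun _ q => q)
    (fun _ ih t q => cond (Nat.ble (Nat.succ t) (age (D.ent q 0))) (ih t (tgt (D.ent q 0))) q) f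

theorem res_zero (t q : ℕ) : D.res 0 t q = q := rfl

theorem res_succ (f t q : ℕ) : D.res (f + 1) t q =
    cond (Nat.ble (Nat.succ t) (age (D.ent q 0))) (D.res f t (tgt (D.ent q 0))) q := rfl

/-- the row of the resolved name -/
def rowRes : ℕ → ℕ → ℕ → ℕ := fun f =>
  Nat.rec (motive := fun _ => ℕ → ℕ → ℕ) (fun _ q => D.row q)
    (fun _ ih t q => cond (Nat.ble (Nat.succ t) (age (fld 96 (D.row q) 0)))
      (ih t (tgt (fld 96 (D.row q) 0))) (D.row q)) f

theorem rowRes_eq (f t q : ℕ) : D.rowRes f t q = D.row (D.res f t q) := by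
  induction f generalizing q with
  | zero => rfl
  | succ f ih =>
    show cond (Nat.ble (Nat.succ t) (age (fld 96 (D.row q) 0)))
      (D.rowRes f t (tgt (fld 96 (D.row q) 0))) (D.row q) = D.row (D.res (f + 1) t q)
    rw [res_succ]
    show _ = D.row (cond (Nat.ble (Nat.succ t) (age (fld 96 (D.row q) 0)))
      (D.res f t (tgt (fld 96 (D.row q) 0))) q)
    cases Nat.ble (Nat.succ t) (age (fld 96 (D.row q) 0))
    · rfl
    · exact ih _

/-- one step from the (unresolved) name `q` along `x`, using entries older than `t` -/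
def stepU (t q : ℕ) (x : γ) : ℕ :=
  cond (Nat.ble (Nat.succ t) (age (fld 96 (D.rowRes D.fuel t q) (Nat.add 2 (D.gi x)))))
    (tgt (fld 96 (D.rowRes D.fuel t q) (Nat.add 2 (D.gi x)))) bad

/-- one step from the name `s` itself (no resolution) -/
def stepRaw (t s : ℕ) (x : γ) : ℕ :=
  cond (Nat.ble (Nat.succ t) (age (D.slot s x))) (tgt (D.slot s x)) bad

/-- walk along a word, using entries older than `t` -/
def walkU (t : ℕ) : List γ → ℕ → ℕ := fun w =>
  List.rec (motive := fun _ => ℕ → ℕ) (fun q => q)
    (fun x _ ih q => cond (Nat.beq q bad) bad (ih (D.stepU t q x))) w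

theorem walkU_nil (t q : ℕ) : D.walkU t [] q = q := rfl

theorem walkU_cons (t : ℕ) (x : γ) (w : List γ) (q : ℕ) :
    D.walkU t (x :: w) q = cond (Nat.beq q bad) bad (D.walkU t w (D.stepU t q x)) := rfl

theorem walkU_bad (t : ℕ) (w : List γ) : D.walkU t w bad = bad := by
  cases w with
  | nil => rfl
  | cons x w =>
    rw [walkU_cons]
    have : Nat.beq bad bad = true := by decide
    rw [this]; rfl

/-- the two names of a coincidence are the owner and the target of the alias entry -/
def okPair (m y p b : ℕ) : Bool :=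
  (Nat.beq m p && Nat.beq y b) || (Nat.beq m b && Nat.beq y p)

/-- check of the edge entry `e` of `p` for `x`: definition of the target -/
def chkDef (p : ℕ) (x : γ) (e : ℕ) : Bool :=
  Nat.beq (apar (D.ent (tgt e) 1)) p && (Nat.beq (adgi (D.ent (tgt e) 1)) (D.gi x) &&
    Nat.ble (Nat.succ (aord (D.ent p 1))) (aord (D.ent (tgt e) 1)))

/-- check of an edge entry: `p` is defined from the target -/
def chkDefInv (p : ℕ) (x : γ) (e : ℕ) : Bool :=
  Nat.beq (apar (D.ent p 1)) (tgt e) && (Nat.beq (adgi (D.ent p 1)) (D.gi (D.gv x)) &&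
    Nat.ble (Nat.succ (aord (D.ent (tgt e) 1))) (aord (D.ent p 1)))

/-- check of an edge entry: relator circuit `x :: u`, walking `u` from the target reaches `p` -/
def chkRel (p : ℕ) (x : γ) (e : ℕ) : Bool :=
  List.rec (motive := fun _ => Bool) false
    (fun h u _ => Nat.beq (D.gi h) (D.gi x) &&
      Nat.beq (D.res D.fuel (age e) (D.walkU (age e) u (tgt e))) p) (D.circ (arg e))

/-- check of an edge entry: subgroup circuit -/
def chkSub (p : ℕ) (x : γ) (e : ℕ) : Bool :=
  List.rec (motive := fun _ => Bool) false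
    (fun h u _ => Nat.beq (D.gi h) (D.gi x) &&
      (Nat.beq (D.res D.fuel (age e) (D.walkU (age e) u (tgt e))) 0 &&
       Nat.beq (D.res D.fuel (age e) (D.walkU (age e) (D.hc2 (arg e)) 0)) p)) (D.hc1 (arg e))

/-- check of an edge entry: transfer from the merged name `arg e` -/
def chkXfer (p : ℕ) (x : γ) (e : ℕ) : Bool :=
  Nat.beq (D.res D.fuel (age e) (arg e)) p &&
    Nat.beq (D.res D.fuel (age e) (D.stepRaw (age e) (arg e) x)) (tgt e)

/-- check of the edge entry of `p` for `x` -/
def chkE (p : ℕ) (x : γ) : Bool :=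
  cond (Nat.beq (age (D.slot p x)) 0) true
    ((Nat.beq (kind (D.slot p x)) 1 && D.chkDef p x (D.slot p x)) ||
     ((Nat.beq (kind (D.slot p x)) 2 && D.chkDefInv p x (D.slot p x)) ||
      ((Nat.beq (kind (D.slot p x)) 3 && D.chkRel p x (D.slot p x)) ||
       ((Nat.beq (kind (D.slot p x)) 5 && D.chkSub p x (D.slot p x)) ||
        (Nat.beq (kind (D.slot p x)) 6 && D.chkXfer p x (D.slot p x))))))

/-- check of an alias entry `a` of `p` with start name `s`: relator circuit -/
def chkCoin (p a s : ℕ) : Bool :=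
  okPair (D.res D.fuel (age a) s)
    (D.res D.fuel (age a) (D.walkU (age a) (D.circ (arg a)) s)) p (tgt a)

/-- check of an alias entry: subgroup circuit -/
def chkSubCoin (p a s : ℕ) : Bool :=
  Nat.beq (D.res D.fuel (age a) (D.walkU (age a) (D.hc1 (arg a)) s)) 0 &&
  okPair (D.res D.fuel (age a) s)
    (D.res D.fuel (age a) (D.walkU (age a) (D.hc2 (arg a)) 0)) p (tgt a)

/-- check of an alias entry: the two edges for one generator out of the merged name `s` and
out of its resolution -/
def chkConf (p a s : ℕ) : Bool :=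
  okPair (D.res D.fuel (age a) (D.stepRaw (age a) s (D.gof (arg a))))
    (D.res D.fuel (age a) (D.stepU (age a) s (D.gof (arg a)))) p (tgt a)

/-- check of an alias entry: going out of `s` and back along one generator -/
def chkConf2 (p a s : ℕ) : Bool :=
  okPair (D.res D.fuel (age a) s)
    (D.res D.fuel (age a) (D.stepU (age a) (D.stepRaw (age a) s (D.gof (arg a)))
      (D.gv (D.gof (arg a))))) p (tgt a)

/-- check of the alias entry of `p` -/
def chkA (p : ℕ) : Bool :=
  cond (Nat.beq (age (D.ent p 0)) 0) true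
    ((Nat.beq (kind (D.ent p 0)) 1 && D.chkCoin p (D.ent p 0) (astart (D.ent p 1))) ||
     ((Nat.beq (kind (D.ent p 0)) 2 && D.chkSubCoin p (D.ent p 0) (astart (D.ent p 1))) ||
      ((Nat.beq (kind (D.ent p 0)) 3 && D.chkConf p (D.ent p 0) (astart (D.ent p 1))) ||
       (Nat.beq (kind (D.ent p 0)) 4 && D.chkConf2 p (D.ent p 0) (astart (D.ent p 1))))))

/-- closure check of the live name `p` for generator `x` -/
def chkF (p : ℕ) (x : γ) : Bool :=
  Nat.ble 1 (age (D.slot p x)) &&
    cond (Nat.ble D.N (tgt (D.slot p x)))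
      (Nat.ble (Nat.succ (D.res D.fuel 0 (tgt (D.slot p x)))) D.N) true

/-- all checks of the name `p` -/
def chk (p : ℕ) : Bool :=
  D.chkA p && (D.gens.all (fun x => D.chkE p x) &&
    cond (Nat.ble D.N p) true (D.gens.all (fun x => D.chkF p x)))

end RData

section Sound

variable {γ : Type} (D : RData γ) {G : Type} [Group G] (H : Subgroup G) (gen : γ → G)

/-- action of a word on cosets, letter by letter -/
def actw (w : List γ) (κ : G ⧸ H) : G ⧸ H := w.foldl (fun κ x => (gen x)⁻¹ • κ) κ

theorem actw_nil (κ : G ⧸ H) : actw H gen [] κ = κ := rfl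

theorem actw_cons (x : γ) (w : List γ) (κ : G ⧸ H) :
    actw H gen (x :: w) κ = actw H gen w ((gen x)⁻¹ • κ) := rfl

theorem actw_append (u v : List γ) (κ : G ⧸ H) :
    actw H gen (u ++ v) κ = actw H gen v (actw H gen u κ) := by
  unfold actw; rw [List.foldl_append]

theorem actw_injective (w : List γ) : Function.Injective (actw H gen w) := by
  induction w with
  | nil => intro a b h; exact h
  | cons x w ih =>
    intro a b h
    rw [actw_cons, actw_cons] at h
    exact MulAction.injective (gen x)⁻¹ (ih h)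

theorem actw_eq (w : List γ) (κ : G ⧸ H) :
    actw H gen w κ = (uw gen w)⁻¹ • κ := by
  induction w generalizing κ with
  | nil => rw [actw_nil, uw_nil, inv_one, one_smul]
  | cons x w ih => rw [actw_cons, ih, uw_cons, mul_inv_rev, mul_smul]

theorem actw_circ (w : List γ) (hw : uw gen w = 1)
    (κ : G ⧸ H) : actw H gen w κ = κ := by
  rw [actw_eq H gen, hw, inv_one, one_smul]

theorem actw_sub (w : List γ) (hw : uw gen w ∈ H) :
    actw H gen w ((1 : G) : G ⧸ H) = ((1 : G) : G ⧸ H) := by
  rw [actw_eq H gen, MulAction.Quotient.smul_coe, smul_eq_mul, mul_one, QuotientGroup.eq,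
    inv_inv, mul_one]
  exact hw

/-- the coset of a name -/
def cv (p : ℕ) : G ⧸ H :=
  if _h : RData.aord (D.ent (RData.apar (D.ent p 1)) 1) < RData.aord (D.ent p 1) then
    (gen (D.gof (RData.adgi (D.ent p 1))))⁻¹ • cv (RData.apar (D.ent p 1))
  else ((1 : G) : G ⧸ H)
termination_by RData.aord (D.ent p 1)

/-- all entries older than `t` are true -/
def Sound (t : ℕ) : Prop :=
  (∀ p x, t < RData.age (D.slot p x) →
    (gen x)⁻¹ • cv D H gen p = cv D H gen (RData.tgt (D.slot p x))) ∧
  (∀ p, t < RData.age (D.ent p 0) → cv D H gen p = cv D H gen (RData.tgt (D.ent p 0)))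

variable {D H gen}

theorem res_cv {t : ℕ} (S : Sound D H gen t) (f q : ℕ) :
    cv D H gen (D.res f t q) = cv D H gen q := by
  induction f generalizing q with
  | zero => rfl
  | succ f ih =>
    rw [RData.res_succ]
    cases hb : Nat.ble (Nat.succ t) (RData.age (D.ent q 0))
    · rfl
    · rw [cond_true, ih]
      rw [Nat.ble_eq] at hb
      exact (S.2 q hb).symm

theorem stepU_cv {t : ℕ} (S : Sound D H gen t) (q : ℕ) (x : γ) (h : D.stepU t q x ≠ RData.bad) :
    (gen x)⁻¹ • cv D H gen q = cv D H gen (D.stepU t q x) := by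
  unfold RData.stepU at h ⊢
  rw [RData.rowRes_eq] at h ⊢
  cases hb : Nat.ble (Nat.succ t)
      (RData.age (fld 96 (D.row (D.res D.fuel t q)) (Nat.add 2 (D.gi x))))
  · rw [hb] at h; exact absurd rfl h
  · rw [cond_true]
    rw [Nat.ble_eq] at hb
    have := S.1 (D.res D.fuel t q) x hb
    rw [res_cv S] at this
    exact this

theorem stepRaw_cv {t : ℕ} (S : Sound D H gen t) (s : ℕ) (x : γ)
    (h : D.stepRaw t s x ≠ RData.bad) :
    (gen x)⁻¹ • cv D H gen s = cv D H gen (D.stepRaw t s x) := by
  unfold RData.stepRaw at h ⊢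
  cases hb : Nat.ble (Nat.succ t) (RData.age (D.slot s x))
  · rw [hb] at h; exact absurd rfl h
  · rw [cond_true]
    rw [Nat.ble_eq] at hb
    exact S.1 s x hb

theorem walkU_cv {t : ℕ} (S : Sound D H gen t) (w : List γ) (q : ℕ)
    (h : D.walkU t w q ≠ RData.bad) :
    actw H gen w (cv D H gen q) = cv D H gen (D.walkU t w q) := by
  induction w generalizing q with
  | nil => rfl
  | cons x w ih =>
    rw [RData.walkU_cons] at h ⊢
    cases hq : Nat.beq q RData.bad
    · rw [hq, cond_false] at h
      rw [cond_false]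
      have hs : D.stepU t q x ≠ RData.bad := by
        intro e; rw [e, RData.walkU_bad] at h; exact h rfl
      rw [actw_cons, stepU_cv S q x hs, ih _ h]
    · rw [hq] at h; exact absurd rfl h

theorem res_bad (hrow : D.row RData.bad = 0) (f t : ℕ) : D.res f t RData.bad = RData.bad := by
  cases f with
  | zero => rfl
  | succ f =>
    rw [RData.res_succ]
    have : D.ent RData.bad 0 = 0 := by
      unfold RData.ent; rw [hrow, fld_zero]
    rw [this, RData.age_zero]
    rfl

/-- hypotheses on the certificate that do not depend on the checks -/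
structure RHyp (D : RData γ) (H : Subgroup G) (gen : γ → G) : Prop where
  hgv : ∀ x, gen (D.gv x) = (gen x)⁻¹
  hgi : ∀ x, D.gof (D.gi x) = x
  hM : D.M ≤ 16777216
  hrow : ∀ p, D.M ≤ p → D.row p = 0
  hcirc : ∀ c, uw gen (D.circ c) = 1
  hhc : ∀ c, uw gen (D.hc2 c ++ D.hc1 c) ∈ H
  h0 : RData.aord (D.ent 0 1) = 0
  hM0 : 0 < D.M

theorem RHyp.rowbad (hy : RHyp D H gen) : D.row RData.bad = 0 :=
  hy.hrow _ hy.hM

theorem RHyp.ne_bad (hy : RHyp D H gen) {p : ℕ} (hp : p < D.M) : p ≠ RData.bad := by
  have := hy.hM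
  intro e; rw [e] at hp
  have : RData.bad = 16777216 := rfl
  omega

theorem RHyp.cv0 (hy : RHyp D H gen) : cv D H gen 0 = ((1 : G) : G ⧸ H) := by
  rw [cv]
  have := hy.h0
  rw [dif_neg]
  omega

theorem RHyp.gi_inj (hy : RHyp D H gen) {x y : γ} (h : D.gi x = D.gi y) : x = y := by
  rw [← hy.hgi x, ← hy.hgi y, h]

theorem stepU_bad (hy : RHyp D H gen) (t : ℕ) (x : γ) : D.stepU t RData.bad x = RData.bad := by
  unfold RData.stepU
  rw [RData.rowRes_eq, res_bad hy.rowbad, hy.rowbad, fld_zero, RData.age_zero]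
  rfl

/-- a walk ending (after resolution) at a name that is not `bad` is a true statement -/
theorem walk_res_cv (hy : RHyp D H gen) {t : ℕ} (S : Sound D H gen t) (w : List γ) (q r : ℕ)
    (hr : r ≠ RData.bad) (h : D.res D.fuel t (D.walkU t w q) = r) :
    actw H gen w (cv D H gen q) = cv D H gen r := by
  have hne : D.walkU t w q ≠ RData.bad := by
    intro e; rw [e, res_bad hy.rowbad] at h; exact hr h.symm
  rw [walkU_cv S w q hne, ← h, res_cv S]

theorem edge_sound (hy : RHyp D H gen) (p : ℕ) (x : γ) (hp : p < D.M)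
    (S : Sound D H gen (RData.age (D.slot p x))) (hne : RData.age (D.slot p x) ≠ 0)
    (hc : D.chkE p x = true) :
    (gen x)⁻¹ • cv D H gen p = cv D H gen (RData.tgt (D.slot p x)) := by
  have hpb := hy.ne_bad hp
  have h0b : (0 : ℕ) ≠ RData.bad := hy.ne_bad hy.hM0
  unfold RData.chkE at hc
  have hb : Nat.beq (RData.age (D.slot p x)) 0 = false := by
    rw [Bool.eq_false_iff]; intro hb; rw [Nat.beq_eq] at hb; exact hne hb
  rw [hb, cond_false] at hc
  generalize D.slot p x = e at hc S ⊢
  simp only [Bool.or_eq_true, Bool.and_eq_true] at hc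
  rcases hc with ⟨_, hc⟩ | ⟨_, hc⟩ | ⟨_, hc⟩ | ⟨_, hc⟩ | ⟨_, hc⟩
  · -- definition of the target
    unfold RData.chkDef at hc
    simp only [Bool.and_eq_true, Nat.beq_eq, Nat.ble_eq] at hc
    obtain ⟨h1, h2, h3⟩ := hc
    rw [cv.eq_1 D H gen (RData.tgt e), dif_pos (by rw [h1]; exact h3), h1, h2, hy.hgi]
  · -- the owner is defined from the target
    unfold RData.chkDefInv at hc
    simp only [Bool.and_eq_true, Nat.beq_eq, Nat.ble_eq] at hc
    obtain ⟨h1, h2, h3⟩ := hc
    rw [cv.eq_1 D H gen p, dif_pos (by rw [h1]; exact h3), h1, h2, hy.hgi, hy.hgv, inv_inv,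
      inv_smul_smul]
  · -- relator circuit
    unfold RData.chkRel at hc
    have hv := hy.hcirc (RData.arg e)
    generalize D.circ (RData.arg e) = w at hc hv
    cases w with
    | nil => exact absurd hc (by simp)
    | cons h u =>
      simp only [Bool.and_eq_true, Nat.beq_eq] at hc
      obtain ⟨h1, h2⟩ := hc
      have hx := hy.gi_inj h1
      subst hx
      have h3 := walk_res_cv hy S u (RData.tgt e) p hpb h2
      have h4 := actw_circ H gen (h :: u) hv (cv D H gen p)
      rw [actw_cons] at h4
      exact actw_injective H gen u (h4.trans h3.symm)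
  · -- subgroup circuit
    unfold RData.chkSub at hc
    have hv := hy.hhc (RData.arg e)
    generalize D.hc1 (RData.arg e) = w at hc hv
    cases w with
    | nil => exact absurd hc (by simp)
    | cons h u =>
      simp only [Bool.and_eq_true, Nat.beq_eq] at hc
      obtain ⟨h1, h2, h3⟩ := hc
      have hx := hy.gi_inj h1
      subst hx
      have h5 := walk_res_cv hy S u (RData.tgt e) 0 h0b h2
      have h6 := walk_res_cv hy S (D.hc2 (RData.arg e)) 0 p hpb h3
      rw [hy.cv0] at h5 h6
      have h7 := actw_sub H gen _ hv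
      rw [actw_append, h6, actw_cons] at h7
      exact actw_injective H gen u (h7.trans h5.symm)
  · -- transfer
    unfold RData.chkXfer at hc
    simp only [Bool.and_eq_true, Nat.beq_eq] at hc
    obtain ⟨h1, h2⟩ := hc
    have hne2 : D.stepRaw (RData.age e) (RData.arg e) x ≠ RData.bad := by
      intro e2; rw [e2, res_bad hy.rowbad] at h2
      exact absurd h2.symm (Nat.ne_of_lt (RData.tgt_lt e))
    have h3 := stepRaw_cv S (RData.arg e) x hne2
    rw [← h1, res_cv S, h3, ← h2, res_cv S]

theorem alias_sound (hy : RHyp D H gen) (p : ℕ) (hp : p < D.M)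
    (S : Sound D H gen (RData.age (D.ent p 0))) (hne : RData.age (D.ent p 0) ≠ 0)
    (hc : D.chkA p = true) :
    cv D H gen p = cv D H gen (RData.tgt (D.ent p 0)) := by
  have hpb := hy.ne_bad hp
  have h0b : (0 : ℕ) ≠ RData.bad := hy.ne_bad hy.hM0
  unfold RData.chkA at hc
  have hb : Nat.beq (RData.age (D.ent p 0)) 0 = false := by
    rw [Bool.eq_false_iff]; intro hb; rw [Nat.beq_eq] at hb; exact hne hb
  rw [hb, cond_false] at hc
  generalize D.ent p 0 = a at hc S ⊢
  generalize RData.astart (D.ent p 1) = s at hc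
  have hbb : RData.tgt a ≠ RData.bad := Nat.ne_of_lt (RData.tgt_lt a)
  -- the common conclusion from the two resolved names
  have fin : ∀ m y : ℕ, cv D H gen m = cv D H gen y → RData.okPair m y p (RData.tgt a) = true →
      cv D H gen p = cv D H gen (RData.tgt a) := by
    intro m y hmy hok
    unfold RData.okPair at hok
    simp only [Bool.or_eq_true, Bool.and_eq_true, Nat.beq_eq] at hok
    rcases hok with ⟨h1, h2⟩ | ⟨h1, h2⟩
    · rw [← h1, ← h2]; exact hmy
    · rw [← h1, ← h2]; exact hmy.symm
  have ybad : ∀ m y : ℕ, RData.okPair m y p (RData.tgt a) = true → y ≠ RData.bad := by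
    intro m y hok
    unfold RData.okPair at hok
    simp only [Bool.or_eq_true, Bool.and_eq_true, Nat.beq_eq] at hok
    rcases hok with ⟨_, h2⟩ | ⟨_, h2⟩
    · rw [h2]; exact hbb
    · rw [h2]; exact hpb
  have mbad : ∀ m y : ℕ, RData.okPair m y p (RData.tgt a) = true → m ≠ RData.bad := by
    intro m y hok
    unfold RData.okPair at hok
    simp only [Bool.or_eq_true, Bool.and_eq_true, Nat.beq_eq] at hok
    rcases hok with ⟨h1, _⟩ | ⟨h1, _⟩
    · rw [h1]; exact hpb
    · rw [h1]; exact hbb
  simp only [Bool.or_eq_true, Bool.and_eq_true] at hc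
  rcases hc with ⟨_, hc⟩ | ⟨_, hc⟩ | ⟨_, hc⟩ | ⟨_, hc⟩
  rotate_left 2
  · unfold RData.chkConf at hc
    refine fin _ _ ?_ hc
    have h1 : D.stepRaw (RData.age a) s (D.gof (RData.arg a)) ≠ RData.bad := by
      intro e; rw [e, res_bad hy.rowbad] at hc; exact mbad _ _ hc rfl
    have h2 : D.stepU (RData.age a) s (D.gof (RData.arg a)) ≠ RData.bad := by
      intro e; rw [e, res_bad hy.rowbad] at hc; exact ybad _ _ hc rfl
    rw [res_cv S, res_cv S, ← stepRaw_cv S _ _ h1, ← stepU_cv S _ _ h2]
  · unfold RData.chkConf2 at hc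
    refine fin _ _ ?_ hc
    have h2 : D.stepU (RData.age a) (D.stepRaw (RData.age a) s (D.gof (RData.arg a)))
        (D.gv (D.gof (RData.arg a))) ≠ RData.bad := by
      intro e; rw [e, res_bad hy.rowbad] at hc; exact ybad _ _ hc rfl
    have h1 : D.stepRaw (RData.age a) s (D.gof (RData.arg a)) ≠ RData.bad := by
      intro e; rw [e] at h2; exact h2 (stepU_bad hy _ _)
    rw [res_cv S, res_cv S, ← stepU_cv S _ _ h2, ← stepRaw_cv S _ _ h1, hy.hgv, inv_inv,
      smul_inv_smul]
  · unfold RData.chkCoin at hc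
    refine fin _ _ ?_ hc
    have h3 := walk_res_cv hy S (D.circ (RData.arg a)) s _ (ybad _ _ hc) rfl
    rw [actw_circ H gen _ (hy.hcirc _)] at h3
    rw [res_cv S, h3]
  · unfold RData.chkSubCoin at hc
    simp only [Bool.and_eq_true, Nat.beq_eq] at hc
    obtain ⟨h1, hc⟩ := hc
    refine fin _ _ ?_ hc
    have h3 := walk_res_cv hy S (D.hc2 (RData.arg a)) 0 _ (ybad _ _ hc) rfl
    have h5 := walk_res_cv hy S (D.hc1 (RData.arg a)) s 0 h0b h1
    rw [hy.cv0] at h3 h5
    have h7 := actw_sub H gen _ (hy.hhc (RData.arg a))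
    rw [actw_append, h3] at h7
    rw [res_cv S]
    exact actw_injective H gen _ (h5.trans h7.symm)

theorem age_lt (e : ℕ) : RData.age e < 4294967296 := by
  have h : (nat_lit 4294967295) < 2 ^ 32 := by decide
  exact Nat.and_lt_two_pow _ h

theorem slot_of_le (hy : RHyp D H gen) (p : ℕ) (x : γ) (hp : D.M ≤ p) : D.slot p x = 0 := by
  unfold RData.slot; rw [hy.hrow p hp, fld_zero]

theorem ent_of_le (hy : RHyp D H gen) (p i : ℕ) (hp : D.M ≤ p) : D.ent p i = 0 := by
  unfold RData.ent; rw [hy.hrow p hp, fld_zero]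

theorem chk_parts (hgens : ∀ x : γ, x ∈ D.gens) (p : ℕ) (h : D.chk p = true) :
    D.chkA p = true ∧ (∀ x, D.chkE p x = true) ∧ (p < D.N → ∀ x, D.chkF p x = true) := by
  unfold RData.chk at h
  simp only [Bool.and_eq_true, List.all_eq_true] at h
  obtain ⟨h1, h2, h3⟩ := h
  refine ⟨h1, fun x => h2 x (hgens x), ?_⟩
  intro hp x
  have : Nat.ble D.N p = false := ble_false_of (by omega)
  rw [this, cond_false, List.all_eq_true] at h3
  exact h3 x (hgens x)

theorem sound_step (hy : RHyp D H gen) (hgens : ∀ x : γ, x ∈ D.gens)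
    (hchk : ∀ p, p < D.M → D.chk p = true) (t : ℕ) (S : Sound D H gen (t + 1)) :
    Sound D H gen t := by
  constructor
  · intro p x ht
    by_cases hp : p < D.M
    · by_cases h1 : t + 1 < RData.age (D.slot p x)
      · exact S.1 p x h1
      · have h2 : RData.age (D.slot p x) = t + 1 := by omega
        have hc := (chk_parts hgens p (hchk p hp)).2.1 x
        exact edge_sound hy p x hp (by rw [h2]; exact S) (by omega) hc
    · rw [slot_of_le hy p x (by omega), RData.age_zero] at ht
      omega
  · intro p ht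
    by_cases hp : p < D.M
    · by_cases h1 : t + 1 < RData.age (D.ent p 0)
      · exact S.2 p h1
      · have h2 : RData.age (D.ent p 0) = t + 1 := by omega
        have hc := (chk_parts hgens p (hchk p hp)).1
        exact alias_sound hy p hp (by rw [h2]; exact S) (by omega) hc
    · rw [ent_of_le hy p 0 (by omega), RData.age_zero] at ht
      omega

theorem sound_all (hy : RHyp D H gen) (hgens : ∀ x : γ, x ∈ D.gens)
    (hchk : ∀ p, p < D.M → D.chk p = true) : ∀ t, Sound D H gen t := by
  have key : ∀ n t, t + n = 4294967296 → Sound D H gen t := by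
    intro n
    induction n with
    | zero =>
      intro t ht
      constructor
      · intro p x h; have := age_lt (D.slot p x); omega
      · intro p h; have := age_lt (D.ent p 0); omega
    | succ n ih =>
      intro t ht
      exact sound_step hy hgens hchk t (ih (t + 1) (by omega))
  intro t
  by_cases ht : t ≤ 4294967296
  · exact key (4294967296 - t) t (by omega)
  · constructor
    · intro p x h; have := age_lt (D.slot p x); omega
    · intro p h; have := age_lt (D.ent p 0); omega

/-- The upper bound given by a checked replay certificate. -/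
theorem replay_bound (hy : RHyp D H gen) (hgens : ∀ x : γ, x ∈ D.gens)
    (hgen : Subgroup.closure (Set.range gen) = ⊤) (hN : 0 < D.N) (hNM : D.N ≤ D.M)
    (hchk : ∀ p, p < D.M → D.chk p = true) :
    Finite (G ⧸ H) ∧ Nat.card (G ⧸ H) ≤ D.N := by
  have S := sound_all hy hgens hchk 0
  have hcl : ∀ x : γ, ∀ i ∈ Finset.range D.N, ∃ j ∈ Finset.range D.N,
      (gen x)⁻¹ • cv D H gen i = cv D H gen j := by
    intro x i hi
    rw [Finset.mem_range] at hi
    have hF := (chk_parts hgens i (hchk i (by omega))).2.2 hi x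
    unfold RData.chkF at hF
    rw [Bool.and_eq_true, Nat.ble_eq] at hF
    obtain ⟨h1, h2⟩ := hF
    have hfact := S.1 i x (by omega)
    cases hb : Nat.ble D.N (RData.tgt (D.slot i x))
    · have hb' : ¬ (D.N ≤ RData.tgt (D.slot i x)) := fun h' => by
        rw [ble_true_of h'] at hb; exact Bool.noConfusion hb
      exact ⟨_, Finset.mem_range.mpr (by omega), hfact⟩
    · rw [hb, cond_true, Nat.ble_eq] at h2
      refine ⟨_, Finset.mem_range.mpr h2, ?_⟩
      rw [res_cv S]; exact hfact
  have r := card_quotient_le H (Set.range gen) hgen (Finset.range D.N) (cv D H gen) 0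
    (Finset.mem_range.mpr hN) hy.cv0
    (by rintro _ ⟨x, rfl⟩ i hi; rw [← inv_inv (gen x), ← hy.hgv x]; exact hcl (D.gv x) i hi)
    (by rintro _ ⟨x, rfl⟩ i hi; exact hcl x i hi)
  rw [Finset.card_range] at r
  exact r

end Sound

end

end Cfsg.Agent.H35.NI
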